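import Cfsg.Agent.H15.J2.Refl
import Cfsg.Agent.H56.J2Leech.Data

/-!
Additive structure on coded triples of icosians and the rational bilinear form on them.
-/

set_option autoImplicit false

namespace Cfsg.Agent.H56.J2Leech

open Quaternion Cfsg.Spor H15.J2

/-- A coordinate pair as an element of `ℤ × ℤ`. -/
def ztPair (x : ZT) : ℤ × ℤ := (x.a, x.b)

instance : Zero ZT := ⟨⟨0, 0⟩⟩
instance : Add ZT := ⟨ZT.add⟩
instance : Neg ZT := ⟨ZT.neg⟩
instance : Sub ZT := ⟨ZT.sub⟩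
instance : SMul ℕ ZT := ⟨fun n x => ZT.smul n x⟩
instance : SMul ℤ ZT := ⟨ZT.smul⟩

instance : AddCommGroup ZT :=
  Function.Injective.addCommGroup ztPair
    (fun x y h => ZT.ext (congrArg Prod.fst h :) (congrArg Prod.snd h :))
    rfl (fun _ _ => rfl) (fun _ => rfl) (fun _ _ => rfl)
    (fun x n => by show ((n : ℤ) * x.a, (n : ℤ) * x.b) = n • (x.a, x.b); simp)
    (fun x n => by show (n * x.a, n * x.b) = n • (x.a, x.b); simp)

/-- A quaternion as a tuple. -/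
def qzTup (p : Qz) : ZT × ZT × ZT × ZT := (p.q0, p.q1, p.q2, p.q3)

instance : Zero Qz := ⟨⟨0, 0, 0, 0⟩⟩
instance : Add Qz := ⟨Qz.add⟩
instance : Neg Qz := ⟨Qz.neg⟩
instance : Sub Qz := ⟨Qz.sub⟩
instance : SMul ℕ Qz := ⟨fun n x => Qz.smul n x⟩
instance : SMul ℤ Qz := ⟨Qz.smul⟩

instance : AddCommGroup Qz :=
  Function.Injective.addCommGroup qzTup
    (fun x y h => by
      simp only [qzTup, Prod.mk.injEq] at h
      exact Qz.ext h.1 h.2.1 h.2.2.1 h.2.2.2)
    rfl (fun _ _ => rfl) (fun _ => rfl) (fun _ _ => rfl) (fun _ _ => rfl) (fun _ _ => rfl)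

/-- A triple as a tuple. -/
def trTup (p : Tr) : Qz × Qz × Qz := (p.x, p.y, p.z)

instance : Zero Tr := ⟨⟨0, 0, 0⟩⟩
instance : Add Tr := ⟨fun p q => ⟨p.x + q.x, p.y + q.y, p.z + q.z⟩⟩
instance : Neg Tr := ⟨fun p => ⟨-p.x, -p.y, -p.z⟩⟩
instance : Sub Tr := ⟨fun p q => ⟨p.x - q.x, p.y - q.y, p.z - q.z⟩⟩
instance : SMul ℕ Tr := ⟨fun n p => ⟨n • p.x, n • p.y, n • p.z⟩⟩
instance : SMul ℤ Tr := ⟨fun n p => ⟨n • p.x, n • p.y, n • p.z⟩⟩

instance : AddCommGroup Tr :=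
  Function.Injective.addCommGroup trTup
    (fun x y h => by simp only [trTup, Prod.mk.injEq] at h; exact Tr.ext h.1 h.2.1 h.2.2)
    rfl (fun _ _ => rfl) (fun _ => rfl) (fun _ _ => rfl) (fun _ _ => rfl) (fun _ _ => rfl)

theorem toV_add (p q : Tr) : toV (p + q) = toV p + toV q := by
  funext i; fin_cases i <;> exact toH_add _ _

/-- The vector of a triple, as an additive map. -/
noncomputable def toVHom : Tr →+ (Fin 3 → ℍ[ℝ]) := AddMonoidHom.mk' toV toV_add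

theorem toV_sub (p q : Tr) : toV (p - q) = toV p - toV q := map_sub toVHom p q

theorem toV_zsmul (n : ℤ) (p : Tr) : toV (n • p) = n • toV p := map_zsmul toVHom n p

theorem toV_sum {ι : Type*} (s : Finset ι) (f : ι → Tr) :
    toV (∑ i ∈ s, f i) = ∑ i ∈ s, toV (f i) := map_sum toVHom f s

/-- The sum of the two coordinates. -/
def ell (x : ZT) : ℤ := x.a + x.b

/-- The Euclidean product of coordinates. -/
def dotQ (p q : Qz) : ZT :=
  ((p.q0.mul q.q0).add (p.q1.mul q.q1)).add ((p.q2.mul q.q2).add (p.q3.mul q.q3))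

/-- The rational form on triples. -/
def E4 (s t : Tr) : ℤ := ell (dotQ s.x t.x) + ell (dotQ s.y t.y) + ell (dotQ s.z t.z)

theorem E4_self (t : Tr) : E4 t t = (nT t).a + (nT t).b := by
  simp only [E4, nT, nq, dotQ, ell, ZT.add]; ring

theorem E4_comm (s t : Tr) : E4 s t = E4 t s := by
  simp only [E4, dotQ, ell, ZT.add, ZT.mul]; ring

theorem tr_add_x (p q : Tr) : (p + q).x = p.x + q.x := rfl
theorem tr_add_y (p q : Tr) : (p + q).y = p.y + q.y := rfl
theorem tr_add_z (p q : Tr) : (p + q).z = p.z + q.z := rfl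
theorem qz_add_def (p q : Qz) :
    p + q = ⟨p.q0.add q.q0, p.q1.add q.q1, p.q2.add q.q2, p.q3.add q.q3⟩ := rfl

theorem E4_add_left (s t u : Tr) : E4 (s + t) u = E4 s u + E4 t u := by
  simp only [E4, tr_add_x, tr_add_y, tr_add_z, qz_add_def, dotQ, ell, ZT.add, ZT.mul]; ring

/-- The form in the first variable, as an additive map. -/
def E4Hom (u : Tr) : Tr →+ ℤ := AddMonoidHom.mk' (fun s => E4 s u) fun s t => E4_add_left s t u

theorem E4_zsmul_left (n : ℤ) (s t : Tr) : E4 (n • s) t = n * E4 s t := by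
  show E4Hom t (n • s) = n * E4Hom t s
  rw [map_zsmul, smul_eq_mul]

theorem E4_zsmul_right (n : ℤ) (s t : Tr) : E4 s (n • t) = n * E4 s t := by
  rw [E4_comm, E4_zsmul_left, E4_comm]

theorem E4_sum_left {ι : Type*} (s : Finset ι) (f : ι → Tr) (u : Tr) :
    E4 (∑ i ∈ s, f i) u = ∑ i ∈ s, E4 (f i) u := map_sum (E4Hom u) f s

theorem E4_sum_right {ι : Type*} (s : Finset ι) (f : ι → Tr) (u : Tr) :
    E4 u (∑ i ∈ s, f i) = ∑ i ∈ s, E4 u (f i) := by
  rw [E4_comm, E4_sum_left]; exact Finset.sum_congr rfl fun i _ => E4_comm _ _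

theorem E4_add_right (s t u : Tr) : E4 u (s + t) = E4 u s + E4 u t := by
  rw [E4_comm, E4_add_left, E4_comm s, E4_comm t]

/-- Twice the left multiple of a triple. -/
def tmul (w : Qz) (t : Tr) : Tr := ⟨Qz.raw w t.x, Qz.raw w t.y, Qz.raw w t.z⟩

theorem toV_tmul (w : Qz) (t : Tr) : toV (tmul w t) = (2 : ℤ) • (toH w • toV t) := by
  funext i
  fin_cases i <;>
    simp [tmul, toV, toH_raw, Pi.smul_apply, zsmul_eq_mul]

/-- The powers of the scalar of order five. -/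
def omQ (k : ℕ) : Qz := dec (omegaCodes.getD k 0)

theorem omQ_one_eq : omQ 1 = ⟨⟨-1, 1⟩, ⟨1, 0⟩, ⟨0, -1⟩, ⟨0, 0⟩⟩ := by decide +kernel

theorem E4_tmul_omega (t : Tr) : E4 (tmul (omQ 1) t) t = (nT t).b := by
  rw [omQ_one_eq]
  simp only [E4, tmul, Qz.raw, nT, nq, dotQ, ell, ZT.add, ZT.sub, ZT.mul]; ring

end Cfsg.Agent.H56.J2Leech
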