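import Cfsg.Agent.H15.J2.MinVec
import Cfsg.Agent.H56.J2Leech.Basic
import Cfsg.Agent.H56.J2Leech.Tables

/-!
The search tree for the images of six minimal vectors under an automorphism commuting with the scalar
of order five.
-/

set_option autoImplicit false

namespace Cfsg.Agent.H56.J2Leech

open H15.J2

/-- Twice a minimal vector, from its indices. -/
def dvec (p : ℕ × ℕ) : Tr := tmul (unitQ p.1) (repT p.2)

/-- The base vectors. -/
def baseP (i : ℕ) : ℕ × ℕ := baseIdx.getD i (0, 0)

/-- An invariant of a pair of minimal vectors. -/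
def pairKey (k : ℕ) (p q : ℕ × ℕ) : ℤ := E4 (tmul (omQ k) (dvec p)) (dvec q)

/-- The coordinates of a quaternion. -/
def flQ (q : Qz) : List ℤ := [q.q0.a, q.q0.b, q.q1.a, q.q1.b, q.q2.a, q.q2.b, q.q3.a, q.q3.b]

/-- The coordinates of a quaternion weighted by the form. -/
def lwQ (q : Qz) : List ℤ :=
  [q.q0.a + q.q0.b, q.q0.a + 2 * q.q0.b, q.q1.a + q.q1.b, q.q1.a + 2 * q.q1.b,
   q.q2.a + q.q2.b, q.q2.a + 2 * q.q2.b, q.q3.a + q.q3.b, q.q3.a + 2 * q.q3.b]

/-- The coordinates of a triple. -/
def flT (t : Tr) : List ℤ := flQ t.x ++ flQ t.y ++ flQ t.z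

/-- The coordinates of a triple weighted by the form. -/
def lwT (t : Tr) : List ℤ := lwQ t.x ++ lwQ t.y ++ lwQ t.z

/-- The product of two coordinate lists. -/
def dotL : List ℤ → List ℤ → ℤ
  | a :: l, b :: m => a * b + dotL l m
  | _, _ => 0

theorem dotL_flQ (p q : Qz) : dotL (lwQ p) (flQ q) = ell (dotQ p q) := by
  simp only [dotL, lwQ, flQ, ell, dotQ, ZT.add, ZT.mul]; ring

theorem dotL_flT (s t : Tr) : dotL (lwT s) (flT t) = E4 s t := by
  simp only [dotL, lwT, flT, lwQ, flQ, List.cons_append, List.nil_append, E4, ell, dotQ, ZT.add,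
    ZT.mul]; ring

theorem ell_dotQ_raw (p u x : Qz) :
    ell (dotQ p (Qz.raw u x)) = ell (dotQ (Qz.raw u.conj p) x) := by
  simp only [ell, dotQ, Qz.raw, Qz.conj, ZT.add, ZT.sub, ZT.neg, ZT.mul]; ring

/-- The first coordinate part of the invariant with the first base vector. -/
def xKey (k u xc : ℕ) : ℤ :=
  ell (dotQ (tmul (omQ k) (dvec (baseP 0))).x (Qz.raw (unitQ u) (dec xc)))

/-- The recorded base vectors. -/
def baseR (i : ℕ) : Rec := baseRec.getD i ⟨(0, 0), [], []⟩

/-- The recorded invariant. -/
def recKey (k : ℕ) (r r' : Rec) : ℤ := dotL (r.left.getD k []) r'.right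

/-- The candidates for the `i`th base vector. -/
def candR (i : ℕ) : List Rec := [candRec1, candRec2, candRec3, candRec4, candRec5].getD (i - 1) []

/-- The correctness of a record. -/
def recOK (r : Rec) : Bool :=
  decide (r.right = flT (dvec r.p)) &&
    (List.range 4).all fun k => decide (r.left.getD k [] = lwT (tmul (omQ k) (dvec r.p)))

theorem base_recs_ok : (List.range 6).all (fun i =>
    recOK (baseR i) && decide ((baseR i).p = baseP i)) = true := by decide +kernel

theorem cand1_ok : candRec1.all recOK = true := by decide +kernel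
theorem cand2_ok : candRec2.all recOK = true := by decide +kernel
theorem cand3_ok : candRec3.all recOK = true := by decide +kernel
theorem cand4_ok : candRec4.all recOK = true := by decide +kernel
theorem cand5_ok : candRec5.all recOK = true := by decide +kernel

theorem candR_ok (i : ℕ) : (candR i).all recOK = true := by
  rw [List.all_eq_true]
  intro r hr
  have : r ∈ candRec1 ∨ r ∈ candRec2 ∨ r ∈ candRec3 ∨ r ∈ candRec4 ∨ r ∈ candRec5 := by
    unfold candR at hr
    generalize i - 1 = m at hr
    rcases m with _ | _ | _ | _ | _ | n <;>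
      simp only [List.getD_cons_zero, List.getD_cons_succ, List.getD_nil, List.not_mem_nil] at hr <;>
      simp only [hr, true_or, or_true]
  rcases this with h | h | h | h | h
  exacts [List.all_eq_true.1 cand1_ok r h, List.all_eq_true.1 cand2_ok r h,
    List.all_eq_true.1 cand3_ok r h, List.all_eq_true.1 cand4_ok r h, List.all_eq_true.1 cand5_ok r h]

theorem recKey_eq {k : ℕ} (hk : k < 4) {r r' : Rec} (h : recOK r = true) (h' : recOK r' = true) :
    recKey k r r' = pairKey k r.p r'.p := by
  simp only [recOK, Bool.and_eq_true, List.all_eq_true, decide_eq_true_eq] at h h'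
  rw [recKey, h.2 k (List.mem_range.2 hk), h'.1, dotL_flT]
  rfl

theorem baseR_spec {i : ℕ} (hi : i < 6) : recOK (baseR i) = true ∧ (baseR i).p = baseP i := by
  have := List.all_eq_true.1 base_recs_ok i (List.mem_range.2 hi)
  simpa using this

/-- The table on the left of the scan is right. -/
def scanLeftOK (u : ℕ) : Bool :=
  (List.range 4).all fun k => decide ((scanLeft.getD u []).getD k [] =
    lwQ (Qz.raw (unitQ u).conj (tmul (omQ k) (dvec (baseP 0))).x))

theorem scanLeft_ok : (List.range 120).all scanLeftOK = true := by decide +kernel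

theorem scanRight_ok : ((List.range xCodes.length).all fun a =>
    decide (scanRight.getD a [] = flQ (dec (xCodes.getD a 0)))) = true := by decide +kernel

/-- The recorded invariant in the scan. -/
def scanKey (k u a : ℕ) : ℤ := dotL ((scanLeft.getD u []).getD k []) (scanRight.getD a [])

theorem scanKey_eq {k u a : ℕ} (hk : k < 4) (hu : u < 120) (ha : a < xCodes.length) :
    scanKey k u a = xKey k u (xCodes.getD a 0) := by
  have h1 := List.all_eq_true.1 scanLeft_ok u (List.mem_range.2 hu)
  simp only [scanLeftOK, List.all_eq_true, decide_eq_true_eq] at h1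
  have h2 := List.all_eq_true.1 scanRight_ok a (List.mem_range.2 ha)
  simp only [decide_eq_true_eq] at h2
  rw [scanKey, h1 k (List.mem_range.2 hk), h2, dotL_flQ, xKey, ell_dotQ_raw]

/-- The invariants of a minimal vector with the first base vector agree with those of the `i`th one. -/
def firstOK (u a i : ℕ) : Bool :=
  (List.range 4).all fun k => decide (scanKey k u a = recKey k (baseR 0) (baseR i))

/-- The test of completeness of the candidates. -/
def scanOK (u : ℕ) : Bool :=
  (List.range xCodes.length).all fun a => (List.range' 1 5).all fun i =>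
    !firstOK u a i ||
      (List.range 315).all fun j =>
        !Nat.beq (Nat.shiftRight (repCodes.getD j 0) 64) (xCodes.getD a 0) ||
          (candR i).any fun r => Nat.beq r.p.1 u && Nat.beq r.p.2 j

theorem scan_ok : (List.range 120).all scanOK = true := by decide +kernel

theorem xcodes_cover : ((List.range 315).all fun j =>
    xCodes.contains (Nat.shiftRight (repCodes.getD j 0) 64)) = true := by decide +kernel

theorem base_zero : ∀ k < 4,
    (tmul (omQ k) (dvec (baseP 0))).y = 0 ∧ (tmul (omQ k) (dvec (baseP 0))).z = 0 := by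
  decide +kernel

theorem ell_dotQ_zero (q : Qz) : ell (dotQ 0 q) = 0 := by
  show ell (dotQ ⟨⟨0, 0⟩, ⟨0, 0⟩, ⟨0, 0⟩, ⟨0, 0⟩⟩ q) = 0
  simp [ell, dotQ, ZT.mul, ZT.add]

theorem pairKey_zero {k : ℕ} (hk : k < 4) (u j : ℕ) :
    pairKey k (baseP 0) (u, j) = xKey k u (Nat.shiftRight (repCodes.getD j 0) 64) := by
  obtain ⟨hy, hz⟩ := base_zero k hk
  unfold pairKey E4
  rw [hy, hz, ell_dotQ_zero, ell_dotQ_zero, add_zero, add_zero]
  rfl

/-- A minimal vector with the invariants of a base vector is a candidate. -/
theorem mem_cands {u j i : ℕ} (hu : u < 120) (hj : j < 315) (hi : 1 ≤ i) (hi5 : i ≤ 5)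
    (h : ∀ k < 4, pairKey k (baseP 0) (u, j) = pairKey k (baseP 0) (baseP i)) :
    ∃ r ∈ candR i, r.p = (u, j) := by
  have hs := List.all_eq_true.1 scan_ok u (List.mem_range.2 hu)
  simp only [scanOK, List.all_eq_true] at hs
  have hx := List.all_eq_true.1 xcodes_cover j (List.mem_range.2 hj)
  rw [List.contains_iff_mem] at hx
  obtain ⟨a, ha, hax⟩ := List.mem_iff_getElem.1 hx
  have hax' : xCodes.getD a 0 = Nat.shiftRight (repCodes.getD j 0) 64 := by
    rw [List.getD_eq_getElem _ _ ha, hax]
  have hfirst : firstOK u a i = true := by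
    simp only [firstOK, List.all_eq_true, decide_eq_true_eq]
    intro k hk
    have hk' := List.mem_range.1 hk
    rw [scanKey_eq hk' hu ha, hax', ← pairKey_zero hk', h k hk',
      recKey_eq hk' (baseR_spec (by omega)).1 (baseR_spec (by omega)).1,
      (baseR_spec (by omega)).2, (baseR_spec (by omega)).2]
  have := hs a (List.mem_range.2 ha) i (List.mem_range'_1.2 ⟨hi, by omega⟩)
  rw [hfirst, Bool.not_true, Bool.false_or, List.all_eq_true] at this
  have h2 := this j (List.mem_range.2 hj)
  rw [hax', Nat.beq_refl, Bool.not_true, Bool.false_or, List.any_eq_true] at h2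
  obtain ⟨r, hr, he⟩ := h2
  rw [Bool.and_eq_true] at he
  exact ⟨r, hr, Prod.ext (Nat.eq_of_beq_eq_true he.1) (Nat.eq_of_beq_eq_true he.2)⟩

/-- The invariants of a new vector with the earlier ones. -/
def extOK (tp : List Rec) (i : ℕ) (x : Rec) : Bool :=
  (List.range tp.length).all fun l => (List.range 4).all fun k =>
    decide (recKey k (tp.getD l ⟨(0, 0), [], []⟩) x = recKey k (baseR (l + 1)) (baseR i))

/-- The tuples compatible with the base. -/
def grow : ℕ → List (List Rec)
  | 0 => [[]]
  | n + 1 => (grow n).flatMap fun tp => ((candR (n + 1)).filter (extOK tp (n + 1))).map (tp ++ [·])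

theorem grow_card : Nat.ble (grow 5).length 160 = true := by decide +kernel

/-- Every compatible tuple is listed. -/
theorem mem_grow (h : ℕ → Rec) : ∀ n ≤ 5,
    (∀ i, 1 ≤ i → i ≤ n → h i ∈ candR i) →
    (∀ l i, 1 ≤ l → l < i → i ≤ n → ∀ k < 4,
      pairKey k (h l).p (h i).p = pairKey k (baseP l) (baseP i)) →
    (List.range n).map (fun i => h (i + 1)) ∈ grow n := by
  intro n
  induction n with
  | zero => intros; simp [grow]
  | succ n ih =>
    intro hn hc hp
    rw [grow, List.mem_flatMap]
    refine ⟨_, ih (by omega) (fun i a b => hc i a (by omega)) (fun l i a b c => hp l i a b (by omega)),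
      List.mem_map.2 ⟨h (n + 1), List.mem_filter.2 ⟨hc _ (by omega) le_rfl, ?_⟩, ?_⟩⟩
    · simp only [extOK, List.all_eq_true, List.mem_range, decide_eq_true_eq, List.length_map,
        List.length_range]
      intro l hl k hk
      have hok : ∀ i, 1 ≤ i → i ≤ n + 1 → recOK (h i) = true := fun i a b =>
        List.all_eq_true.1 (candR_ok i) _ (hc i a b)
      rw [List.getD_eq_getElem _ _ (by simpa using hl), List.getElem_map, List.getElem_range,
        recKey_eq hk (hok _ (by omega) (by omega)) (hok _ (by omega) le_rfl),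
        recKey_eq hk (baseR_spec (by omega)).1 (baseR_spec (by omega)).1,
        (baseR_spec (by omega)).2, (baseR_spec (by omega)).2]
      exact hp (l + 1) (n + 1) (by omega) (by omega) le_rfl k hk
    · rw [List.range_succ, List.map_append]; rfl

/-- The test that the base vectors span. -/
theorem span_ok : spanDen ≠ 0 ∧ ∀ j < 3, ∀ i : Fin 8,
    (∑ l ∈ Finset.range 6, ∑ k ∈ Finset.range 4,
        ((spanCoef.getD (8 * j + i) []).getD (4 * l + k) 0) • tmul (omQ k) (dvec (baseP l)))
      = spanDen • tmul (bas i) ([repT 72, ⟨Qz.zero, hh, hh⟩,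
          ⟨Qz.zero, Qz.zero, Qz.one.smul 2⟩].getD j 0) := by
  decide +kernel

end Cfsg.Agent.H56.J2Leech
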