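import Cfsg.Agent.H56.J2Leech.Embed
import Cfsg.Agent.H56.J2Leech.Search
import Cfsg.Agent.H14.Co0Order

/-!
The centralizer of the element of order five has order at most `5 · |2J₂|`.
-/

set_option autoImplicit false

namespace Cfsg.Agent.H56.J2Leech

open Quaternion Cfsg.Spor H15.J2

noncomputable section

theorem vec_zsmul_cancel {n : ℤ} {x y : Vec} (hn : n ≠ 0) (h : n • x = n • y) : x = y := by
  rw [← Int.cast_smul_eq_zsmul ℝ, ← Int.cast_smul_eq_zsmul ℝ] at h
  exact smul_right_injective Vec (Int.cast_ne_zero.2 hn) h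

attribute [local irreducible] grow

theorem tmul_zsmul (w : Qz) (n : ℤ) (t : Tr) : tmul w (n • t) = n • tmul w t := by
  apply toV_injective
  simp only [toV_tmul, toV_zsmul, smul_comm (toH w) n, smul_comm (2 : ℤ) n]

/-- The form of two lattice vectors. -/
def form (x y : ↥lat) : ℤ := E4 (tr x) (tr y)

variable {f : ↥lat → ↥lat}

theorem form_eq (hadd : ∀ v w, f (v + w) = f v + f w) (hE : ∀ v, form (f v) (f v) = form v v)
    (x y : ↥lat) : form (f x) (f y) = form x y := by
  have h := hE (x + y)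
  have hx := hE x
  have hy := hE y
  simp only [form, hadd, tr_add, E4_add_left, E4_add_right] at h hx hy ⊢
  rw [E4_comm (tr (f y)) (tr (f x)), E4_comm (tr y) (tr x)] at h
  linarith

theorem iter_comm (hom : ∀ v, f (smW v) = smW (f v)) (v : ↥lat) :
    ∀ k : ℕ, f (smW^[k] v) = smW^[k] (f v)
  | 0 => rfl
  | k + 1 => by
    rw [Function.iterate_succ_apply', Function.iterate_succ_apply', hom, iter_comm hom v k]

theorem form_omega (hadd : ∀ v w, f (v + w) = f v + f w) (hom : ∀ v, f (smW v) = smW (f v))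
    (hE : ∀ v, form (f v) (f v) = form v v) {k : ℕ} (hk : k < 5) (x y : ↥lat) :
    E4 (tmul (omQ k) (tr (f x))) (tr (f y)) = E4 (tmul (omQ k) (tr x)) (tr y) := by
  rw [tmul_omQ _ hk, tmul_omQ _ hk, E4_zsmul_left, E4_zsmul_left, ← iter_comm hom]
  exact congrArg (2 * ·) (form_eq hadd hE _ _)

theorem nT_image (hadd : ∀ v w, f (v + w) = f v + f w) (hom : ∀ v, f (smW v) = smW (f v))
    (hE : ∀ v, form (f v) (f v) = form v v) (x : ↥lat) : nT (tr (f x)) = nT (tr x) := by
  have h1 := form_omega hadd hom hE (by norm_num : 1 < 5) x x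
  rw [E4_tmul_omega, E4_tmul_omega] at h1
  have h2 := hE x
  simp only [form, E4_self] at h2
  exact ZT.ext (by omega) h1

/-- The minimal vector with given indices. -/
def mv (p : ℕ × ℕ) (h : p.1 < 120 ∧ p.2 < 315) : ↥lat :=
  ⟨toH (unitQ p.1) • toV (repT p.2), smul_mem_icoLeech (unit_spec h.1).1 (repT_spec h.2).1⟩

theorem dvec_eq (p : ℕ × ℕ) (h : p.1 < 120 ∧ p.2 < 315) : dvec p = (2 : ℤ) • tr (mv p h) := by
  apply toV_injective
  rw [toV_zsmul, toV_tr, dvec, toV_tmul]
  rfl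

theorem base_lt : ∀ i : Fin 6, (baseP i).1 < 120 ∧ (baseP i).2 < 315 := by decide +kernel

/-- The base vectors in the lattice. -/
def bv (i : Fin 6) : ↥lat := mv (baseP i) (base_lt i)

theorem dvec_base (i : Fin 6) : dvec (baseP i) = (2 : ℤ) • tr (bv i) := dvec_eq _ _

theorem nT_bv (i : Fin 6) : nT (tr (bv i)) = ⟨16, 0⟩ := by
  rw [← qip_toV_eq_four, toV_tr]
  exact qip_smul_self _ _ (repT_spec (base_lt i).2).2 (unit_spec (base_lt i).1).2.2.2

/-- The minimal vectors. -/
def minSet : Set ↥lat := Set.range fun p : Fin 120 × Fin 315 => mv (p.1, p.2) ⟨p.1.2, p.2.2⟩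

theorem mem_minSet {v : ↥lat} (h : nT (tr v) = ⟨16, 0⟩) :
    ∃ p : Fin 120 × Fin 315, mv (p.1, p.2) ⟨p.1.2, p.2.2⟩ = v := by
  have h4 := (qip_toV_eq_four _).2 h
  rw [toV_tr] at h4
  obtain ⟨i, hi, k, hk, e⟩ := min_vec_normal v.2 h4
  exact ⟨(⟨i, hi⟩, ⟨k, hk⟩), Subtype.ext e.symm⟩

theorem minSet_ncard : minSet.ncard ≤ 37800 := by
  rw [minSet, ← Set.image_univ]
  refine le_trans (Set.ncard_image_le Set.finite_univ) ?_
  rw [Set.ncard_univ, Nat.card_prod, Nat.card_fin, Nat.card_fin]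

/-- An element of `Co0` commuting with the element of order five, as a permutation. -/
abbrev Cen : Subgroup ↥Co0 := Subgroup.centralizer (Subgroup.zpowers aEl : Set ↥Co0)

theorem mem_Cen {g : ↥Co0} : g ∈ Cen ↔ g * aEl = aEl * g := by
  rw [Subgroup.mem_centralizer_iff]
  constructor
  · exact fun h => (h aEl (Subgroup.mem_zpowers aEl)).symm
  · intro h x hx
    obtain ⟨n, rfl⟩ := Subgroup.mem_zpowers_iff.1 hx
    exact ((Commute.zpow_right h n).eq).symm

theorem Cen_props (g : ↥Cen) : (∀ v w, act g (v + w) = act g v + act g w) ∧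
    (∀ v, act g (smW v) = smW (act g v)) ∧
    ∀ v, form (act g v) (act g v) = form v v := by
  refine ⟨act_add g, fun v => ?_, act_E4 g⟩
  have h := Equiv.ext_iff.1 (congrArg act (mem_Cen.1 g.2)) v
  rw [map_mul, map_mul, Equiv.Perm.mul_apply, Equiv.Perm.mul_apply, act_aEl] at h
  exact h

theorem exists_cand (g : ↥Cen) (h0 : act g (bv 0) = bv 0) (i : Fin 6) (hi : 1 ≤ (i : ℕ)) :
    ∃ r ∈ candR i, dvec r.p = (2 : ℤ) • tr (act g (bv i)) := by
  obtain ⟨ha, ho, hE⟩ := Cen_props g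
  obtain ⟨⟨u, j⟩, e⟩ := mem_minSet (v := act g (bv i)) (by rw [nT_image ha ho hE, nT_bv])
  have hp : ∀ k < 4, pairKey k (baseP 0) ((u : ℕ), (j : ℕ)) = pairKey k (baseP 0) (baseP i) := by
    intro k hk
    have e0 : dvec (baseP 0) = (2 : ℤ) • tr (bv 0) := dvec_base 0
    rw [pairKey, pairKey, e0, dvec_eq ((u : ℕ), (j : ℕ)) ⟨u.2, j.2⟩, dvec_base i, e, tmul_zsmul,
      E4_zsmul_left, E4_zsmul_left, E4_zsmul_right, E4_zsmul_right]
    conv_lhs => rw [← h0]
    rw [form_omega ha ho hE (by omega)]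
  obtain ⟨r, hr, hrp⟩ := mem_cands u.2 j.2 hi (by omega) hp
  refine ⟨r, hr, ?_⟩
  rw [hrp, dvec_eq _ ⟨u.2, j.2⟩, e]

theorem eq_of_base {g g' : ↥Cen} (h : ∀ i, act g (bv i) = act g' (bv i)) : g = g' := by
  obtain ⟨ha, ho, -⟩ := Cen_props g
  obtain ⟨ha', ho', -⟩ := Cen_props g'
  let F : ↥lat →+ ↥lat := AddMonoidHom.mk' (act g) ha
  let F' : ↥lat →+ ↥lat := AddMonoidHom.mk' (act g') ha'
  have key : ∀ j < 3, ∀ a ∈ icosians, ∀ x : ↥lat, (x : Vec) = a • toV (genTr j) → F x = F' x := by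
    intro j hj a ha x hx
    obtain ⟨q, hq, rfl⟩ := mem_icosians.1 ha
    let S : AddSubgroup ℍ[ℝ] :=
      { carrier := {a | ∃ x : ↥lat, (x : Vec) = a • toV (genTr j) ∧ F x = F' x}
        zero_mem' := ⟨0, by rw [zero_smul]; rfl, by rw [map_zero, map_zero]⟩
        add_mem' := by
          rintro a b ⟨x, hx, ex⟩ ⟨y, hy, ey⟩
          exact ⟨x + y, by rw [AddSubgroup.coe_add, hx, hy, add_smul],
            by rw [map_add, map_add, ex, ey]⟩
        neg_mem' := by
          rintro a ⟨x, hx, ex⟩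
          exact ⟨-x, by rw [AddSubgroup.coe_neg, hx, neg_smul], by rw [map_neg, map_neg, ex]⟩ }
    have hmem : toH q ∈ S := by
      rw [← lc_coef q hq]
      refine toH_lc_mem S (fun i => ?_) _
      obtain ⟨hD, hs⟩ := span_ok
      have hgl : toV (genTr j) ∈ icoLeech := by
        interval_cases j
        · exact (repT_spec (by decide : iA < 315)).1
        · exact mem_icoLeech.2 ⟨_, e_ok.2.2.1, rfl⟩
        · exact mem_icoLeech.2 ⟨_, e_ok.2.2.2.2.1, rfl⟩
      refine ⟨⟨_, smul_mem_icoLeech (bas_mem_icosians i) hgl⟩, rfl, ?_⟩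
      set B : ↥lat := ⟨_, smul_mem_icoLeech (bas_mem_icosians i) hgl⟩ with hB
      set c : ℕ → ℕ → ℤ := fun l k => (spanCoef.getD (8 * j + i) []).getD (4 * l + k) 0 with hc
      have he : ∑ l : Fin 6, ∑ k ∈ Finset.range 4, c l k • ((2 : ℤ) • smW^[k] (bv l)) = spanDen • B := by
        apply Subtype.ext
        have h2 : toV (∑ l ∈ Finset.range 6, ∑ k ∈ Finset.range 4,
            c l k • tmul (omQ k) (dvec (baseP l))) = toV (spanDen • tmul (bas i) (genTr j)) :=
          congrArg toV (hs j hj i)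
        simp only [toV_zsmul, toV_sum, toV_tmul, smul_comm spanDen (2 : ℤ)] at h2
        rw [Finset.sum_range] at h2
        have h3 : ∀ l : Fin 6, ∀ k ∈ Finset.range 4,
            c l k • ((2 : ℤ) • (toH (omQ k) • toV (dvec (baseP l)))) =
              (2 : ℤ) • (c l k • ((2 : ℤ) • (om ^ k • (bv l : Vec)))) := by
          intro l k hk
          rw [Finset.mem_range] at hk
          rw [dvec_base, toV_zsmul, toV_tr, toH_omQ (by omega), smul_comm (om ^ k) (2 : ℤ),
            smul_comm (c l k) (2 : ℤ)]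
        rw [Finset.sum_congr rfl fun l _ => Finset.sum_congr rfl (h3 l)] at h2
        simp only [← Finset.smul_sum] at h2
        simp only [AddSubgroup.val_finsetSum, AddSubgroup.coe_zsmul, coe_smW_iter]
        exact vec_zsmul_cancel (by norm_num : (2 : ℤ) ≠ 0) h2
      have hF : spanDen • F B = spanDen • F' B := by
        rw [← map_zsmul, ← map_zsmul, ← he, map_sum, map_sum]
        refine Finset.sum_congr rfl fun l _ => ?_
        rw [map_sum, map_sum]
        refine Finset.sum_congr rfl fun k _ => ?_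
        rw [map_zsmul, map_zsmul, map_zsmul, map_zsmul]
        show _ • ((2 : ℤ) • act g (smW^[k] (bv l))) = _ • ((2 : ℤ) • act g' (smW^[k] (bv l)))
        rw [iter_comm ho, iter_comm ho', h l]
      apply Subtype.ext
      exact vec_zsmul_cancel hD (congrArg Subtype.val hF :)
    obtain ⟨y, hy, ey⟩ := hmem
    rwa [show x = y from Subtype.ext (hx.trans hy.symm)]
  apply Subtype.ext
  apply act_injective
  ext1 ⟨v, hv⟩
  obtain ⟨a, b, c, ha, hb, hc, rfl⟩ := lat_decomp hv
  have m1 := smul_mem_icoLeech ha (repT_spec (by decide : iA < 315)).1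
  have m2 := smul_mem_icoLeech hb (mem_icoLeech.2 ⟨e2T, e_ok.2.2.1, rfl⟩)
  have m3 := smul_mem_icoLeech hc (mem_icoLeech.2 ⟨e3T, e_ok.2.2.2.2.1, rfl⟩)
  show F ((⟨_, m1⟩ : ↥lat) + ⟨_, m2⟩ + ⟨_, m3⟩) = F' ((⟨_, m1⟩ : ↥lat) + ⟨_, m2⟩ + ⟨_, m3⟩)
  rw [map_add, map_add, map_add, map_add, key 0 (by norm_num) a ha _ rfl,
    key 1 (by norm_num) b hb _ rfl, key 2 (by norm_num) c hc _ rfl]

/-- The order of the centralizer is at most `5 · |2J₂|`. -/
theorem card_Cen_le : Nat.card ↥Cen ≤ 6048000 := by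
  classical
  have := H14.finite_Co0
  let _inst : MulAction ↥Cen ↥lat := MulAction.compHom ↥lat (act.comp Cen.subtype)
  have hsmul : ∀ (g : ↥Cen) v, g • v = act g v := fun _ _ => rfl
  set K := MulAction.stabilizer ↥Cen (bv 0) with hK
  have hidx : K.index ≤ 37800 := by
    rw [MulAction.index_stabilizer]
    refine le_trans (Set.ncard_le_ncard ?_ (Set.finite_range _)) minSet_ncard
    rintro _ ⟨g, rfl⟩
    obtain ⟨ha, ho, hE⟩ := Cen_props g
    exact mem_minSet (v := act g (bv 0)) (by rw [nT_image ha ho hE, nT_bv])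
  have hKc : Nat.card ↥K ≤ 160 := by
    have hex : ∀ (g : ↥K) (i : ℕ), ∃ r : Rec, ∀ h : 1 ≤ i ∧ i ≤ 5,
        r ∈ candR i ∧ dvec r.p = (2 : ℤ) • tr (act g.1 (bv ⟨i, by omega⟩)) := by
      intro g i
      by_cases h : 1 ≤ i ∧ i ≤ 5
      · obtain ⟨r, hr⟩ := exists_cand g.1 g.2 ⟨i, by omega⟩ h.1
        exact ⟨r, fun _ => hr⟩
      · exact ⟨⟨(0, 0), [], []⟩, fun h' => absurd h' h⟩
    choose r hr using hex
    have hmem : ∀ g : ↥K, (List.range 5).map (fun i => r g (i + 1)) ∈ (grow 5).toFinset := by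
      intro g
      rw [List.mem_toFinset]
      refine mem_grow (r g) 5 le_rfl (fun i a b => (hr g i ⟨a, b⟩).1) fun l i h1 h2 h3 k hk => ?_
      obtain ⟨ha, ho, hE⟩ := Cen_props g.1
      have el : dvec (baseP l) = (2 : ℤ) • tr (bv ⟨l, by omega⟩) := dvec_base ⟨l, by omega⟩
      have ei : dvec (baseP i) = (2 : ℤ) • tr (bv ⟨i, by omega⟩) := dvec_base ⟨i, by omega⟩
      rw [pairKey, pairKey, (hr g l ⟨h1, by omega⟩).2, (hr g i ⟨by omega, h3⟩).2, el, ei,
        tmul_zsmul, tmul_zsmul, E4_zsmul_left, E4_zsmul_left, E4_zsmul_right, E4_zsmul_right,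
        form_omega ha ho hE (by omega)]
    have hinj : Function.Injective fun g : ↥K =>
        (⟨_, hmem g⟩ : {t // t ∈ (grow 5).toFinset}) := by
      intro g g' e
      have e' : ∀ i, i < 5 → r g (i + 1) = r g' (i + 1) := by
        intro i hi
        have := congrArg (fun t => (t.1 : List Rec)[i]?) e
        simpa [List.getElem?_map, List.getElem?_range, hi] using this
      refine Subtype.ext (eq_of_base fun i => ?_)
      by_cases hi : (i : ℕ) = 0
      · rw [show i = 0 from Fin.ext hi]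
        exact g.2.trans g'.2.symm
      · have h1 := (hr g i ⟨by omega, by omega⟩).2
        have h2 := (hr g' i ⟨by omega, by omega⟩).2
        have he := e' ((i : ℕ) - 1) (by omega)
        rw [show (i : ℕ) - 1 + 1 = (i : ℕ) by omega] at he
        rw [he, h2] at h1
        apply Subtype.ext
        have h3 := congrArg toV h1
        rw [toV_zsmul, toV_zsmul, toV_tr, toV_tr] at h3
        exact (vec_zsmul_cancel (by norm_num : (2 : ℤ) ≠ 0) h3).symm
    refine le_trans (Nat.card_le_card_of_injective _ hinj) ?_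
    rw [Nat.card_eq_fintype_card, Fintype.card_coe]
    exact le_trans (List.toFinset_card_le _) (Nat.le_of_ble_eq_true grow_card)
  rw [← K.card_mul_index]
  calc Nat.card ↥K * K.index ≤ 160 * 37800 := Nat.mul_le_mul hKc hidx
    _ = 6048000 := by norm_num

end

end Cfsg.Agent.H56.J2Leech
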