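import Cfsg.Agent.H15.MatAut
import Cfsg.Agent.H56.J2Leech.Basic

/-!
An isometry between the standard Leech lattice and the icosian Leech lattice.
-/

set_option autoImplicit false

namespace Cfsg.Agent.H56.J2Leech

open Quaternion Cfsg.Spor H15.J2 Finset

/-- The image of `8 e_i`. -/
def axT (i : ℕ) : Tr := decT (axisCodes.getD i 0)

/-- The combination of the images. -/
def combL (w : List ℤ) : Tr := ∑ i ∈ range 24, w.getD i 0 • axT i

/-- The combination of the images of a vector. -/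
def comb (x : GolayPt → ℤ) : Tr := ∑ p, x p • axT (H15.idx p)

theorem comb_toVec (l : List ℤ) : comb (H15.toVec l) = combL l :=
  H15.sum24 fun i => l.getD i 0 • axT i

theorem comb_add (x y : GolayPt → ℤ) : comb (x + y) = comb x + comb y := by
  simp only [comb, Pi.add_apply, add_smul, sum_add_distrib]

theorem gram_ok : ∀ i < 24, ∀ j < 24, E4 (axT i) (axT j) = if i = j then 32 else 0 := by
  decide +kernel

theorem E4_comb (x : GolayPt → ℤ) : E4 (comb x) (comb x) = 32 * sqNorm x := by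
  simp only [comb, E4_sum_left, E4_sum_right, E4_zsmul_left, E4_zsmul_right,
    gram_ok _ (H15.idx_lt _) _ (H15.idx_lt _), H15.idx_injective.eq_iff, mul_ite, mul_zero,
    sum_ite_eq', mem_univ, if_true]
  rw [sqNorm, mul_sum]
  exact sum_congr rfl fun i _ => by ring

/-- The test of the images of the spanning list. -/
theorem gens_image_ok : ∀ i < H15.latGens.length,
    inL (decT (genCodes.getD i 0)) = true ∧
      combL (H15.latGens.getD i []) = (8 : ℤ) • decT (genCodes.getD i 0) := by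
  decide +kernel

/-- The real vector of a vector of the standard lattice. -/
noncomputable def rawMap : (GolayPt → ℤ) →+ Vec :=
  AddMonoidHom.mk' (fun x => (1 / 8 : ℝ) • toV (comb x)) fun x y => by
    simp only [comb_add, toV_add, smul_add]

theorem eighth_toV (t : Tr) : (1 / 8 : ℝ) • toV ((8 : ℤ) • t) = toV t := by
  rw [toV_zsmul, ← Int.cast_smul_eq_zsmul ℝ, smul_smul]; norm_num

theorem rawMap_mem {x : GolayPt → ℤ} (hx : x ∈ leechLattice) : rawMap x ∈ lat := by
  have h : H14.IsLeech x := H14.mem_leechLattice_iff.1 hx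
  refine H15.leech_le_of_gens (S := lat.comap rawMap) (fun l hl => ?_) h
  obtain ⟨i, hi, rfl⟩ := List.mem_iff_getElem.1 hl
  obtain ⟨h1, h2⟩ := gens_image_ok i hi
  rw [List.getD_eq_getElem _ _ hi] at h2
  rw [AddSubgroup.mem_comap]
  show (1 / 8 : ℝ) • toV (comb _) ∈ lat
  rw [comb_toVec, h2, eighth_toV]
  exact mem_icoLeech.2 ⟨_, h1, rfl⟩

/-- The triple of a point of the icosian lattice. -/
noncomputable def tr (v : ↥lat) : Tr := Classical.choose (mem_icoLeech.1 v.2)

theorem toV_tr (v : ↥lat) : toV (tr v) = (v : Vec) :=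
  (Classical.choose_spec (mem_icoLeech.1 v.2)).2

theorem tr_add (v w : ↥lat) : tr (v + w) = tr v + tr w :=
  toV_injective (by rw [toV_add, toV_tr, toV_tr, toV_tr]; rfl)

theorem tr_zero : tr 0 = 0 := by
  have := tr_add 0 0
  rw [add_zero] at this
  exact left_eq_add.1 this

theorem tr_zsmul (n : ℤ) (v : ↥lat) : tr (n • v) = n • tr v :=
  toV_injective (by rw [toV_zsmul, toV_tr, toV_tr]; rfl)

/-- The map of lattices. -/
noncomputable def psi : ↥leechLattice →+ ↥lat :=
  AddMonoidHom.mk' (fun x => ⟨rawMap x, rawMap_mem x.2⟩) fun x y =>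
    Subtype.ext (map_add rawMap (x : GolayPt → ℤ) y)

theorem tr_psi (x : ↥leechLattice) : (8 : ℤ) • tr (psi x) = comb x := by
  apply toV_injective
  rw [toV_zsmul, toV_tr]
  show (8 : ℤ) • ((1 / 8 : ℝ) • toV (comb (x : GolayPt → ℤ))) = toV (comb (x : GolayPt → ℤ))
  rw [← Int.cast_smul_eq_zsmul ℝ, smul_smul]; norm_num

theorem sqNorm_psi (x : ↥leechLattice) :
    sqNorm (x : GolayPt → ℤ) = 2 * E4 (tr (psi x)) (tr (psi x)) := by
  have h := E4_comb x
  rw [← tr_psi, E4_zsmul_left, E4_zsmul_right] at h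
  linarith

theorem psi_injective : Function.Injective psi := by
  rw [injective_iff_map_eq_zero]
  intro x hx
  have h := sqNorm_psi x
  rw [hx, tr_zero] at h
  have h0 : sqNorm (x : GolayPt → ℤ) = 0 := by rw [h]; decide
  apply Subtype.ext
  funext p
  rw [sqNorm, sum_eq_zero_iff_of_nonneg fun i _ => sq_nonneg _] at h0
  simpa using h0 p (mem_univ _)

/-- The three generators over the icosians. -/
def genTr (j : ℕ) : Tr := [repT iA, e2T, e3T].getD j 0

/-- The test of the preimages of a basis. -/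
theorem basis_pre_ok : ∀ j < 3, ∀ i : Fin 8,
    H15.leechOk (basPre.getD (8 * j + i) []) = true ∧
      combL (basPre.getD (8 * j + i) []) = (4 : ℤ) • tmul (bas i) (genTr j) := by
  decide +kernel

theorem smul_genTr_mem {a : ℍ[ℝ]} (ha : a ∈ icosians) {j : ℕ} (hj : j < 3) :
    ∃ x, (psi x : Vec) = a • toV (genTr j) := by
  obtain ⟨q, hq, rfl⟩ := mem_icosians.1 ha
  let S : AddSubgroup ℍ[ℝ] :=
    { carrier := {a | ∃ x, (psi x : Vec) = a • toV (genTr j)}
      zero_mem' := ⟨0, by rw [map_zero, zero_smul]; rfl⟩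
      add_mem' := by
        rintro a b ⟨x, hx⟩ ⟨y, hy⟩
        exact ⟨x + y, by rw [map_add, AddSubgroup.coe_add, hx, hy, add_smul]⟩
      neg_mem' := by
        rintro a ⟨x, hx⟩
        exact ⟨-x, by rw [map_neg, AddSubgroup.coe_neg, hx, neg_smul]⟩ }
  have := toH_lc_mem S (fun i => ?_) (coef q)
  · rwa [lc_coef q hq] at this
  · obtain ⟨h1, h2⟩ := basis_pre_ok j hj i
    refine ⟨⟨_, H14.mem_leechLattice_iff.2 (H15.leechOk_spec h1)⟩, ?_⟩
    show (1 / 8 : ℝ) • toV (comb _) = _
    rw [comb_toVec, h2, toV_zsmul, toV_tmul, ← Int.cast_smul_eq_zsmul ℝ, ← Int.cast_smul_eq_zsmul ℝ,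
      smul_smul, smul_smul]
    norm_num

theorem psi_surjective : Function.Surjective psi := by
  rintro ⟨v, hv⟩
  obtain ⟨a, b, c, ha, hb, hc, rfl⟩ := lat_decomp hv
  obtain ⟨x, hx⟩ := smul_genTr_mem ha (by norm_num : 0 < 3)
  obtain ⟨y, hy⟩ := smul_genTr_mem hb (by norm_num : 1 < 3)
  obtain ⟨z, hz⟩ := smul_genTr_mem hc (by norm_num : 2 < 3)
  exact ⟨x + y + z, Subtype.ext (by
    rw [map_add, map_add, AddSubgroup.coe_add, AddSubgroup.coe_add, hx, hy, hz]; rfl)⟩

/-- The isometry of lattices. -/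
noncomputable def psiEquiv : ↥leechLattice ≃+ ↥lat :=
  AddEquiv.ofBijective psi ⟨psi_injective, psi_surjective⟩

/-- The squared length in terms of the icosian coordinates. -/
theorem sqNorm_symm (v : ↥lat) :
    sqNorm ((psiEquiv.symm v : ↥leechLattice) : GolayPt → ℤ) = 2 * E4 (tr v) (tr v) := by
  rw [sqNorm_psi]
  show 2 * E4 (tr (psiEquiv (psiEquiv.symm v))) (tr (psiEquiv (psiEquiv.symm v))) = _
  rw [AddEquiv.apply_symm_apply]

end Cfsg.Agent.H56.J2Leech
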