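import Cfsg.Agent.H15.J2.Group
import Cfsg.Agent.H56.J2Leech.Iso

/-!
The double cover of the Hall–Janko group and a commuting element of order five inside `Co0`.
-/

set_option autoImplicit false

namespace Cfsg.Agent.H56.J2Leech

open Quaternion Cfsg.Spor H15.J2

noncomputable section

theorem omQ_ok : omQ 0 = Qz.one ∧ ∀ k < 5, inI (omQ k) = true ∧
    Qz.raw (omQ 1) (omQ k) = (omQ ((k + 1) % 5)).smul 2 ∧
    Qz.raw (omQ k).conj (omQ k) = Qz.one.smul 2 := by decide +kernel

/-- The scalar of order five. -/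
def om : ℍ[ℝ] := toH (omQ 1)

theorem toH_omQ : ∀ {k : ℕ}, k < 5 → toH (omQ k) = om ^ k
  | 0, _ => by rw [omQ_ok.1, toH_one, pow_zero]
  | k + 1, h => by
    have e := mul_eq_of_raw (omQ_ok.2 k (by omega)).2.1
    rw [Nat.mod_eq_of_lt h, toH_omQ (by omega : k < 5)] at e
    rw [pow_succ', ← e]; rfl

theorem om_five : om ^ 5 = 1 := by
  have e := mul_eq_of_raw (omQ_ok.2 4 (by norm_num)).2.1
  rw [show (4 + 1) % 5 = 0 from rfl, omQ_ok.1, toH_one, toH_omQ (by norm_num : 4 < 5)] at e
  rw [pow_succ', ← e]; rfl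

theorem om_mem : om ∈ icosians := toH_mem_icosians_iff.2 (omQ_ok.2 1 (by norm_num)).1

theorem om_unit : star om * om = 1 := by
  rw [om, ← toH_conj, mul_eq_of_raw (omQ_ok.2 1 (by norm_num)).2.2, toH_one]

/-- Left multiplication by the scalar. -/
def smW : ↥lat →+ ↥lat :=
  AddMonoidHom.mk' (fun v => ⟨om • (v : Vec), smul_mem_icoLeech om_mem v.2⟩) fun v w =>
    Subtype.ext (smul_add om (v : Vec) w)

theorem coe_smW_iter (v : ↥lat) : ∀ k : ℕ, ((smW^[k] v : ↥lat) : Vec) = om ^ k • (v : Vec)
  | 0 => by rw [pow_zero, one_smul]; rfl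
  | k + 1 => by
    rw [Function.iterate_succ_apply', pow_succ', mul_smul, ← coe_smW_iter v k]; rfl

theorem smW_five (v : ↥lat) : smW^[5] v = v :=
  Subtype.ext (by rw [coe_smW_iter, om_five, one_smul])

theorem tmul_omQ (v : ↥lat) {k : ℕ} (hk : k < 5) :
    tmul (omQ k) (tr v) = (2 : ℤ) • tr (smW^[k] v) := by
  apply toV_injective
  rw [toV_tmul, toV_zsmul, toV_tr, toV_tr, coe_smW_iter, toH_omQ hk]

theorem nT_eq_of_qip {s t : Tr} (h : qip (toV s) (toV s) = qip (toV t) (toV t)) : nT s = nT t := by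
  have e : ∀ t : Tr, toR (nT t) = 4 * ∑ i, Quaternion.normSq (toV t i) := fun t => by
    simp only [nT, toR_add, toR_nq, Fin.sum_univ_three, toV_zero', toV_one', toV_two']; ring
  rw [qip_self, qip_self] at h
  apply toR_injective
  rw [e, e]
  have := congrArg QuaternionAlgebra.re h
  simp only [Quaternion.re_coe] at this
  rw [this]

theorem E4_eq_of_qip {v w : ↥lat} (h : qip (v : Vec) v = qip (w : Vec) w) :
    E4 (tr v) (tr v) = E4 (tr w) (tr w) := by
  rw [E4_self, E4_self, nT_eq_of_qip (s := tr v) (t := tr w) (by rwa [toV_tr, toV_tr])]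

/-- The left multiplication as a permutation. -/
def omPerm : Equiv.Perm ↥lat where
  toFun := smW
  invFun := smW^[4]
  left_inv v := by rw [← Function.iterate_succ_apply]; exact smW_five v
  right_inv v := by rw [← Function.iterate_succ_apply' smW 4]; exact smW_five v

theorem qip_smW (v : ↥lat) : qip (smW v : Vec) (smW v) = qip (v : Vec) v := by
  have hu : om * star om = 1 := by
    have h1 : star om = om ^ 4 := by
      calc star om = star om * (om * om ^ 4) := by rw [← pow_succ', om_five, mul_one]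
        _ = om ^ 4 := by rw [← mul_assoc, om_unit, one_mul]
    rw [h1, ← pow_succ', om_five]
  show qip (om • (v : Vec)) (om • (v : Vec)) = _
  rw [qip_smul_left, qip_smul_right, qip_self, Quaternion.coe_commutes, ← mul_assoc,
    hu, one_mul]

/-- The action of `Co0` on the icosian lattice. -/
def act : ↥Co0 →* Equiv.Perm ↥lat :=
  psiEquiv.toEquiv.permCongrHom.toMonoidHom.comp Co0.subtype

theorem act_apply (g : ↥Co0) (v : ↥lat) :
    act g v = psiEquiv ((g : Equiv.Perm ↥leechLattice) (psiEquiv.symm v)) := rfl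

theorem act_injective : Function.Injective act := fun g h e => by
  apply Subtype.ext
  apply Equiv.ext
  intro x
  have := Equiv.ext_iff.1 e (psiEquiv x)
  simp only [act_apply, AddEquiv.symm_apply_apply] at this
  exact psiEquiv.injective this

theorem act_add (g : ↥Co0) (v w : ↥lat) : act g (v + w) = act g v + act g w := by
  simp only [act_apply, map_add, g.2.1]

theorem act_E4 (g : ↥Co0) (v : ↥lat) : E4 (tr (act g v)) (tr (act g v)) = E4 (tr v) (tr v) := by
  have h := g.2.2 (psiEquiv.symm v)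
  rw [sqNorm_symm, show (g : Equiv.Perm ↥leechLattice) (psiEquiv.symm v) = psiEquiv.symm (act g v) by
    rw [act_apply, AddEquiv.symm_apply_apply], sqNorm_symm] at h
  omega

/-- An element of `Co0` from an isometry of the icosian lattice. -/
def toCo0 (σ : Equiv.Perm ↥lat) (hadd : ∀ v w, σ (v + w) = σ v + σ w)
    (hE : ∀ v, E4 (tr (σ v)) (tr (σ v)) = E4 (tr v) (tr v)) : ↥Co0 :=
  ⟨psiEquiv.toEquiv.symm.permCongrHom σ, fun x y => by
    show psiEquiv.symm (σ (psiEquiv (x + y))) = psiEquiv.symm (σ (psiEquiv x)) + psiEquiv.symm (σ (psiEquiv y))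
    rw [map_add, hadd, map_add],
   fun x => by
    show sqNorm ((psiEquiv.symm (σ (psiEquiv x)) : ↥leechLattice) : GolayPt → ℤ) = _
    rw [sqNorm_symm, hE]
    conv_rhs => rw [← psiEquiv.symm_apply_apply x, sqNorm_symm]⟩

theorem act_toCo0 (σ : Equiv.Perm ↥lat) (hadd hE) : act (toCo0 σ hadd hE) = σ := by
  apply Equiv.ext
  intro v
  show psiEquiv (psiEquiv.symm (σ (psiEquiv (psiEquiv.symm v)))) = σ v
  rw [AddEquiv.apply_symm_apply, AddEquiv.apply_symm_apply]

/-- The element of order five. -/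
def aEl : ↥Co0 := toCo0 omPerm (fun v w => map_add smW v w) fun v => E4_eq_of_qip (qip_smW v)

theorem act_aEl : act aEl = omPerm := act_toCo0 _ _ _

theorem twoJ2_lin (g : ↥twoJ2) : IsLin (g : Equiv.Perm icoLeech) := (twoJ2_le g.2).1

/-- A reflection product as a permutation of the subgroup of the icosian lattice. -/
def onLat (g : ↥twoJ2) : Equiv.Perm ↥lat := (g : Equiv.Perm icoLeech)

theorem onLat_add (g : ↥twoJ2) (v w : ↥lat) : onLat g (v + w) = onLat g v + onLat g w := by
  obtain ⟨F, -, e⟩ := twoJ2_lin g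
  apply Subtype.ext
  show ((onLat g (v + w) : ↥lat) : Vec) = (onLat g v : Vec) + (onLat g w : Vec)
  exact (e _).trans ((map_add F (v : Vec) w).trans (congrArg₂ (· + ·) (e v).symm (e w).symm))

theorem onLat_smW (g : ↥twoJ2) (v : ↥lat) : onLat g (smW v) = smW (onLat g v) := by
  obtain ⟨F, -, e⟩ := twoJ2_lin g
  apply Subtype.ext
  exact (e _).trans ((map_smul F om (v : Vec)).trans (congrArg (om • ·) (e v).symm))

theorem onLat_E4 (g : ↥twoJ2) (v : ↥lat) :
    E4 (tr (onLat g v)) (tr (onLat g v)) = E4 (tr v) (tr v) := by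
  obtain ⟨F, hF, e⟩ := twoJ2_lin g
  refine E4_eq_of_qip ?_
  have : ((onLat g v : ↥lat) : Vec) = F v := e v
  rw [this, hF]

/-- The double cover inside `Co0`. -/
def theta : ↥twoJ2 →* ↥Co0 :=
  MonoidHom.mk' (fun g => toCo0 (onLat g) (onLat_add g) (onLat_E4 g)) fun g h => act_injective (by
    rw [map_mul, act_toCo0, act_toCo0, act_toCo0]; rfl)

theorem act_theta (g : ↥twoJ2) : act (theta g) = onLat g := act_toCo0 _ (onLat_add g) (onLat_E4 g)

theorem theta_injective : Function.Injective theta := fun g h e => by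
  have := congrArg act e
  rw [act_theta, act_theta] at this
  exact Subtype.ext this

theorem theta_comm (g : ↥twoJ2) : theta g * aEl = aEl * theta g := act_injective (by
  rw [map_mul, map_mul, act_theta, act_aEl]
  exact Equiv.ext fun v => onLat_smW g v)

theorem aEl_pow_five : aEl ^ 5 = 1 := act_injective (by
  rw [map_pow, act_aEl, map_one]
  refine Equiv.ext fun v => ?_
  rw [Equiv.Perm.coe_pow]
  exact smW_five v)

theorem aEl_ne_one : aEl ≠ 1 := fun h => by
  have h' := congrArg act h
  rw [act_aEl, map_one] at h'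
  have h1 := congrArg (fun p : Equiv.Perm ↥lat => ((p (⟨_, (repT_spec (by norm_num : 304 < 315)).1⟩) : ↥lat) : Vec) 0) h'
  have h2 : toH (omQ 1) * toH (repT 304).x = toH (repT 304).x := h1
  have h3 : toH (Qz.raw (omQ 1) (repT 304).x) = toH ((repT 304).x.smul 2) := by
    rw [toH_raw, h2, toH_smul, zsmul_eq_mul, Int.cast_ofNat]
  exact absurd (toH_injective h3) (by decide +kernel)

theorem orderOf_aEl : orderOf aEl = 5 :=
  haveI : Fact (Nat.Prime 5) := ⟨by norm_num⟩
  orderOf_eq_prime aEl_pow_five aEl_ne_one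

end

end Cfsg.Agent.H56.J2Leech
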