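import Cfsg.Agent.H15.J2.Centralizer
import Cfsg.Agent.H18.CoOne.Centralizer
import Cfsg.Agent.H5.SmallOrth

/-!
The centralizer of a reflection in the Hall–Janko group on the 315 lines is large extraspecial of
minus type in dimension four.
-/

set_option autoImplicit false

namespace Cfsg.Agent.H56.J2Leech

open Cfsg.Spor H15.J2

noncomputable section

/-- The base reflection. -/
def zBase : ↥G315 := ⟨pi base0, pi_mem base0⟩

theorem orderOf_zBase : orderOf zBase = 2 := by
  refine orderOf_eq_prime (Subtype.ext (by simpa [pow_two, zBase] using pi_sq base0)) fun h => ?_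
  exact zK_ne_one (Subtype.ext (Subtype.ext (congrArg Subtype.val h :)))

/-- Its centralizer. -/
abbrev CZ : Subgroup ↥G315 := Subgroup.centralizer ({zBase} : Set ↥G315)

theorem mem_CZ {g : ↥G315} : g ∈ CZ ↔ (g : P315) ∈ Stab := by
  rw [mem_stab_iff_commute g.2, Subgroup.mem_centralizer_singleton_iff, Subtype.ext_iff]
  rfl

/-- The centralizer is the stabilizer of the base line. -/
def czEquiv : ↥CZ ≃* ↥Stab where
  toFun g := ⟨((g : ↥G315) : P315), mem_CZ.1 g.2⟩
  invFun g := ⟨⟨(g : P315), (mem_stab0.1 g.2).1⟩, mem_CZ.2 g.2⟩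
  left_inv _ := rfl
  right_inv _ := rfl
  map_mul' _ _ := rfl

/-- The map onto the alternating group. -/
def czHom : ↥CZ →* alternatingGroup (Fin 5) := blockHom.comp czEquiv.toMonoidHom

theorem czHom_surjective : Function.Surjective czHom := blockHom_surjective.comp czEquiv.surjective

/-- The kernel is the kernel of the block map. -/
def kerEquiv : ↥czHom.ker ≃* ↥blockHom.ker where
  toFun a := ⟨czEquiv a, a.2⟩
  invFun b := ⟨czEquiv.symm b, by simp [czHom, MonoidHom.mem_ker, MonoidHom.mem_ker.1 b.2]⟩
  left_inv a := Subtype.ext (czEquiv.symm_apply_apply a)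
  right_inv b := Subtype.ext (czEquiv.apply_symm_apply b)
  map_mul' a b := Subtype.ext (map_mul czEquiv (a : ↥CZ) b)

theorem card_czKer : Nat.card czHom.ker = 2 ^ 5 := by
  rw [Nat.card_congr kerEquiv.toEquiv, ker_card]; norm_num

theorem extraspecial_czKer : Cfsg.IsExtraspecial 2 czHom.ker :=
  Cfsg.Agent.H58.isExtraspecial_congr kerEquiv.symm ker_extraspecial

theorem witness_ok : stabW [8] = true ∧ [5] ∈ kerWords ∧ sameOn ([8] ++ [8] ++ [8]) [] = true ∧
    sameOn ([8] ++ [5]) ([5] ++ [8]) = false := by decide +kernel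

theorem centralizer_czKer : Subgroup.centralizer (czHom.ker : Set ↥CZ) ≤ czHom.ker := by
  have : (Subgroup.centralizer (czHom.ker : Set ↥CZ)).Normal := Subgroup.normal_centralizer
  have : IsSimpleGroup (alternatingGroup (Fin 5)) := alternatingGroup.isSimpleGroup (by simp)
  rcases IsSimpleGroup.eq_bot_or_eq_top_of_normal _
    (Subgroup.Normal.map (H := Subgroup.centralizer (czHom.ker : Set ↥CZ)) inferInstance czHom
      czHom_surjective) with h | h
  · intro x hx
    exact Subgroup.mem_bot.1 (h ▸ Subgroup.mem_map_of_mem czHom hx)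
  · exfalso
    obtain ⟨hx, hq, h3, hne⟩ := witness_ok
    set x : ↥CZ := czEquiv.symm (sEl [8]) with hxdef
    set q : ↥CZ := czEquiv.symm (sEl [5]) with hqdef
    have hqk : q ∈ czHom.ker := by
      simp [czHom, hqdef, MonoidHom.mem_ker, MonoidHom.mem_ker.1 (sEl_mem_ker hq)]
    have hx3 : x ^ 3 = 1 := by
      rw [hxdef, ← map_pow, ← map_one czEquiv.symm]
      refine congrArg _ (Subtype.ext ?_)
      have e := sameOn_sound h3
      rw [wPerm_append, wPerm_append] at e
      rw [pow_three', Subgroup.coe_mul, Subgroup.coe_mul, sEl_val hx, e]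
      simp [wPerm]
    obtain ⟨c, hc, hcx⟩ : czHom x ∈ (Subgroup.centralizer (czHom.ker : Set ↥CZ)).map czHom :=
      h ▸ Subgroup.mem_top _
    have hk : x * c⁻¹ ∈ czHom.ker := by rw [MonoidHom.mem_ker, map_mul, map_inv, hcx, mul_inv_cancel]
    set k := x * c⁻¹ with hkdef
    have hxk : x = k * c := by rw [hkdef, inv_mul_cancel_right]
    have hcomm : ∀ m ∈ czHom.ker, Commute c m := fun m hm => (hc m hm).symm
    have hk4 : k ^ 4 = 1 := by
      have h2 : (⟨k, hk⟩ : czHom.ker) ^ 2 ∈ Subgroup.center czHom.ker := by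
        have := ker_center
        have h' := ker_ok
        simp only [kerOK, Bool.and_eq_true, List.all_eq_true] at h'
        obtain ⟨u, hu, eu⟩ := ker_mem_words (kerEquiv ⟨k, hk⟩).2
        have hz : (kerEquiv ⟨k, hk⟩) ^ 2 ∈ Subgroup.center blockHom.ker := by
          rw [← SetLike.mem_coe, this]
          rcases isZ_sound (h'.2.2.1 u hu) with e | e
          · left
            refine Subtype.ext (Subtype.ext ?_)
            simp only [wPerm_append] at e
            simp only [pow_two, Subgroup.coe_mul, eu, sEl_val (h'.1 u hu).1, e, Subgroup.coe_one]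
            simp [wPerm]
          · right
            refine Subtype.ext (Subtype.ext ?_)
            simp only [wPerm_append] at e
            simp only [pow_two, Subgroup.coe_mul, eu, sEl_val (h'.1 u hu).1, e]
            simp [wPerm, zK]
        rw [Subgroup.mem_center_iff] at hz ⊢
        intro m
        apply kerEquiv.injective
        simp only [map_mul, map_pow]
        exact hz _
      have hcard : Nat.card (Subgroup.center czHom.ker) = 2 := extraspecial_czKer.2
      have := pow_card_eq_one' (G := ↥(Subgroup.center czHom.ker)) (x := ⟨_, h2⟩)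
      rw [hcard] at this
      have e := congrArg (fun y : ↥(Subgroup.center czHom.ker) => ((y : czHom.ker) : ↥CZ)) this
      simp only [Subgroup.coe_pow, Subgroup.coe_one] at e
      rwa [← pow_mul] at e
    have hck : Commute k c := (hcomm k hk).symm
    have hk3 : Commute (k ^ 3) q := by
      have e : k ^ 3 = (c ^ 3)⁻¹ := by
        rw [eq_inv_iff_mul_eq_one, ← hck.mul_pow, ← hxk, hx3]
      rw [e]
      exact ((hcomm q hqk).pow_left 3).inv_left
    have hkq : Commute k q := by
      have e : k = (k ^ 3)⁻¹ := by rw [eq_inv_iff_mul_eq_one, ← pow_succ', hk4]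
      rw [e]; exact hk3.inv_left
    have hxq : Commute x q := hxk ▸ hkq.mul_left (hcomm q hqk)
    have e := congrArg (fun y : ↥CZ => ((y : ↥G315) : P315)) hxq.eq
    have e' : wPerm ([8] ++ [5]) = wPerm ([5] ++ [8]) := by
      rw [wPerm_append, wPerm_append, ← sEl_val hx,
        ← sEl_val (show stabW [5] = true by decide +kernel)]
      exact e
    have hsame : sameOn ([8] ++ [5]) ([5] ++ [8]) = true := by
      simp only [sameOn, Bool.and_eq_true, List.all_eq_true]
      have v1 : validW ([8] ++ [5]) = true := by decide +kernel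
      have v2 : validW ([5] ++ [8]) = true := by decide +kernel
      refine ⟨v1, v2, fun y hy => ?_⟩
      have hy' : y < 315 := by
        simp only [six, List.mem_cons, List.not_mem_nil, or_false] at hy; omega
      rw [← wPerm_apply v1 ⟨y, hy'⟩, ← wPerm_apply v2 ⟨y, hy'⟩, e']
      exact Nat.beq_refl _
    rw [hne] at hsame
    exact Bool.false_ne_true hsame

theorem fstar_CZ : Cfsg.generalizedFittingSubgroup ↥CZ = czHom.ker := by
  have : IsSimpleGroup (alternatingGroup (Fin 5)) := alternatingGroup.isSimpleGroup (by simp)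
  have e := QuotientGroup.quotientKerEquivOfSurjective czHom czHom_surjective
  refine H18.fstar_eq_of_simple_quotient czHom.ker
    (IsPGroup.of_card (p := 2) card_czKer).isNilpotent centralizer_czKer
    (e.isSimpleGroup_congr.2 inferInstance) fun hc => ?_
  have h : ∀ a b : alternatingGroup (Fin 5), a * b = b * a := fun a b => e.symm.injective (by
    rw [map_mul, map_mul]; exact hc.is_comm.comm _ _)
  let _inst : CommGroup (alternatingGroup (Fin 5)) :=
    { (inferInstance : Group (alternatingGroup (Fin 5))) with mul_comm := h }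
  have hp := IsSimpleGroup.prime_card (α := alternatingGroup (Fin 5))
  rw [card_alt5] at hp
  norm_num at hp

theorem quotient_omega : Nonempty (↥CZ ⧸ czHom.ker ≃*
    Cfsg.Omega (ZMod 2) (Cfsg.quadFormMinus 1 (ZMod 2) 1 1)) := by
  obtain ⟨e⟩ := H5.nonempty_minus_four_two
  have hmap : (Cfsg.Omega (ZMod 2) (Cfsg.quadFormMinus 1 (ZMod 2) 1 1)).map e.toMonoidHom =
      alternatingGroup (Fin 5) := by
    show (commutator _).map e.toMonoidHom = _
    rw [commutator_def, Subgroup.map_commutator, Subgroup.map_top_of_surjective _ e.surjective,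
      ← commutator_def, alternatingGroup.commutator_perm_eq (by simp)]
  exact ⟨(QuotientGroup.quotientKerEquivOfSurjective czHom czHom_surjective).trans
    ((e.subgroupMap _).trans (MulEquiv.subgroupCongr hmap)).symm⟩

/-- A conjugate of the reflection inside the kernel. -/
theorem exists_conj : ∃ g : ↥G315, (∃ hq : g * zBase * g⁻¹ ∈ CZ,
    (⟨g * zBase * g⁻¹, hq⟩ : ↥CZ) ∈ czHom.ker) ∧ g * zBase * g⁻¹ ≠ zBase := by
  have hw : validW [2, 1, 0, 2] = true ∧ wAct [2, 1, 0, 2] 304 ≠ 304 ∧ [1] ∈ kerWords ∧
      sameOn ([1] ++ [2, 1, 0, 2]) ([2, 1, 0, 2] ++ [0]) = true := by decide +kernel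
  obtain ⟨hv, hne, hk, hs⟩ := hw
  set g : ↥G315 := ⟨wPerm [2, 1, 0, 2], wPerm_mem _⟩
  have e := sameOn_sound hs
  rw [wPerm_append, wPerm_append, wPerm_zero] at e
  have hval : ((g * zBase * g⁻¹ : ↥G315) : P315) = wPerm [1] := by
    show wPerm [2, 1, 0, 2] * pi base0 * (wPerm [2, 1, 0, 2])⁻¹ = _
    rw [← e, mul_inv_cancel_right]
  have hsw : stabW [1] = true := by decide +kernel
  have hmem : g * zBase * g⁻¹ ∈ CZ := mem_CZ.2 (by rw [hval, ← sEl_val hsw]; exact (sEl [1]).2)
  refine ⟨g, ⟨hmem, ?_⟩, fun h => hne ?_⟩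
  · have : czEquiv ⟨g * zBase * g⁻¹, hmem⟩ = sEl [1] := Subtype.ext (hval.trans (sEl_val hsw).symm)
    show blockHom (czEquiv ⟨g * zBase * g⁻¹, hmem⟩) = 1
    rw [this]; exact sEl_mem_ker hk
  · have h' : wPerm [2, 1, 0, 2] * pi base0 * (wPerm [2, 1, 0, 2])⁻¹ = pi base0 := congrArg Subtype.val h
    rw [pi_conj (wPerm_mem _)] at h'
    have := congrArg Fin.val (pi_eq_base h')
    rw [wPerm_apply hv] at this
    exact this

end

end Cfsg.Agent.H56.J2Leech
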