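import Cfsg.Agent.H56.J2Leech.Bound
import Cfsg.Agent.H15.J2.Simple
import Cfsg.Agent.H14.Co1Simple

/-!
The section of `Co0` at a scalar of order five is the Hall–Janko group.
-/

set_option autoImplicit false

namespace Cfsg.Agent.H56.J2Leech

open Quaternion Cfsg.Spor H15.J2

noncomputable section

theorem theta_mem_Cen (g : ↥twoJ2) : theta g ∈ Cen := mem_Cen.2 (theta_comm g)

theorem aEl_mem_Cen {x : ↥Co0} (hx : x ∈ Subgroup.zpowers aEl) : x ∈ Cen := by
  obtain ⟨n, rfl⟩ := Subgroup.mem_zpowers_iff.1 hx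
  exact mem_Cen.2 ((Commute.refl aEl).zpow_left n).eq

theorem zpow_comm_theta {x : ↥Co0} (hx : x ∈ Subgroup.zpowers aEl) (g : ↥twoJ2) :
    x * theta g = theta g * x := by
  obtain ⟨n, rfl⟩ := Subgroup.mem_zpowers_iff.1 hx
  exact (Commute.zpow_right (theta_comm g) n).eq.symm

theorem theta_meet {g : ↥twoJ2} (h : theta g ∈ Subgroup.zpowers aEl) : g = 1 := by
  have hc : g ∈ Subgroup.center ↥twoJ2 := Subgroup.mem_center_iff.2 fun k =>
    theta_injective (by rw [map_mul, map_mul]; exact (zpow_comm_theta h k).symm)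
  have h2 : g ^ 2 = 1 := by
    have := pow_card_eq_one' (G := ↥(Subgroup.center ↥twoJ2)) (x := ⟨g, hc⟩)
    rw [center_card] at this
    exact congrArg Subtype.val this
  have h5 : g ^ 5 = 1 := theta_injective (by
    have := pow_card_eq_one' (G := ↥(Subgroup.zpowers aEl)) (x := ⟨theta g, h⟩)
    rw [Nat.card_zpowers, orderOf_aEl] at this
    rw [map_pow, map_one]
    exact congrArg Subtype.val this)
  calc g = g ^ 5 := by rw [show g ^ 5 = g ^ 2 * g ^ 2 * g by group, h2]; group
    _ = 1 := h5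

/-- The product map. -/
def prodHom : ↥twoJ2 × ↥(Subgroup.zpowers aEl) →* ↥Cen :=
  MonoidHom.mk' (fun p => ⟨theta p.1 * p.2, mul_mem (theta_mem_Cen _) (aEl_mem_Cen p.2.2)⟩)
    fun p q => Subtype.ext (by
      show theta (p.1 * q.1) * ((p.2 : ↥Co0) * q.2) = theta p.1 * p.2 * (theta q.1 * q.2)
      rw [map_mul, mul_assoc (theta p.1) (p.2 : ↥Co0), ← mul_assoc (p.2 : ↥Co0) (theta q.1),
        zpow_comm_theta p.2.2 q.1, mul_assoc, mul_assoc])

theorem prodHom_injective : Function.Injective prodHom := by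
  rw [injective_iff_map_eq_one]
  rintro ⟨g, x⟩ h
  have h' : theta g * (x : ↥Co0) = 1 := congrArg Subtype.val h
  have hg : g = 1 := theta_meet (by
    rw [eq_inv_of_mul_eq_one_left h']; exact inv_mem x.2)
  subst hg
  rw [map_one, one_mul] at h'
  exact Prod.ext rfl (Subtype.ext h')

theorem prodHom_bijective : Function.Bijective prodHom := by
  have := H14.finite_Co0
  refine prodHom_injective.bijective_of_nat_card_le (card_Cen_le.trans ?_)
  rw [Nat.card_prod, twoJ2_card, Nat.card_zpowers, orderOf_aEl]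

theorem negT_ne_one : negT ≠ 1 := fun h => negL_ne_one (congrArg Subtype.val h)

theorem theta_negT_central : theta negT ∈ Subgroup.center ↥Co0 := by
  refine Subgroup.mem_center_iff.2 fun g => act_injective ?_
  rw [map_mul, map_mul, act_theta]
  refine Equiv.ext fun v => ?_
  have hneg : ∀ w : ↥lat, onLat negT w = -w := fun w => Subtype.ext (negL_apply w)
  rw [Equiv.Perm.mul_apply, Equiv.Perm.mul_apply, hneg, hneg]
  exact map_neg (AddMonoidHom.mk' (act g) (act_add g)) v

theorem center_mem {z : ↥Co0} (hz : z ∈ Subgroup.center ↥Co0) : z = 1 ∨ z = theta negT := by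
  have hne : theta negT ≠ 1 := fun h => negT_ne_one (theta_injective (h.trans (map_one _).symm))
  by_contra hcon
  rw [not_or] at hcon
  have : Finite ↥(Subgroup.center ↥Co0) :=
    Nat.finite_of_card_ne_zero (by rw [H14.card_center]; norm_num)
  have h3 : ({⟨1, one_mem _⟩, ⟨theta negT, theta_negT_central⟩, ⟨z, hz⟩} :
      Set ↥(Subgroup.center ↥Co0)).ncard = 3 := by
    rw [Set.ncard_insert_of_notMem (by simp [Ne.symm hcon.1, hne.symm]),
      Set.ncard_pair (by simp [Ne.symm hcon.2])]
  have := Set.ncard_le_card ({⟨1, one_mem _⟩, ⟨theta negT, theta_negT_central⟩, ⟨z, hz⟩} :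
      Set ↥(Subgroup.center ↥Co0))
  rw [h3, H14.card_center] at this
  omega

/-- The product as an isomorphism. -/
def prodEquiv : ↥twoJ2 × ↥(Subgroup.zpowers aEl) ≃* ↥Cen :=
  MulEquiv.ofBijective prodHom prodHom_bijective

/-- The map of the centralizer onto the group on the 315 lines. -/
def proj : ↥Cen →* ↥G315 :=
  (twoHom.codRestrict G315 fun g => twoHom_range ▸ ⟨g, rfl⟩).comp
    ((MonoidHom.fst _ _).comp prodEquiv.symm.toMonoidHom)

theorem proj_surjective : Function.Surjective proj := by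
  rintro ⟨σ, hσ⟩
  rw [← twoHom_range] at hσ
  obtain ⟨g, rfl⟩ := hσ
  refine ⟨prodEquiv (g, 1), Subtype.ext ?_⟩
  show twoHom (prodEquiv.symm (prodEquiv (g, 1))).1 = _
  rw [MulEquiv.symm_apply_apply]

theorem ker_proj : (Subgroup.zpowers aEl ⊔ Subgroup.center ↥Co0).subgroupOf Cen = proj.ker := by
  apply le_antisymm
  · intro c hc
    rw [Subgroup.mem_subgroupOf, Subgroup.mem_sup_of_normal_right] at hc
    obtain ⟨x, hx, z, hz, e⟩ := hc
    obtain ⟨p, hp⟩ : ∃ p : ↥twoJ2, twoHom p = 1 ∧ z = theta p := by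
      rcases center_mem hz with rfl | rfl
      · exact ⟨1, map_one _, (map_one _).symm⟩
      · exact ⟨negT, twoHom_negT, rfl⟩
    have hc' : prodEquiv (p, ⟨x, hx⟩) = c := Subtype.ext (by
      show theta p * x = c
      rw [← zpow_comm_theta hx, ← hp.2]; exact e)
    rw [MonoidHom.mem_ker, ← hc']
    refine Subtype.ext ?_
    show twoHom (prodEquiv.symm (prodEquiv (p, ⟨x, hx⟩))).1 = 1
    rw [MulEquiv.symm_apply_apply]; exact hp.1
  · intro c hc
    obtain ⟨⟨g, x⟩, rfl⟩ := prodEquiv.surjective c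
    have hg : twoHom g = 1 := by
      have := congrArg Subtype.val (MonoidHom.mem_ker.1 hc)
      change twoHom (prodEquiv.symm (prodEquiv (g, x))).1 = 1 at this
      rwa [MulEquiv.symm_apply_apply] at this
    show theta g * (x : ↥Co0) ∈ Subgroup.zpowers aEl ⊔ Subgroup.center ↥Co0
    refine mul_mem (Subgroup.mem_sup_right ?_) (Subgroup.mem_sup_left x.2)
    rcases twoHom_eq_one_iff.1 hg with rfl | rfl
    · rw [map_one]; exact one_mem _
    · exact theta_negT_central

theorem section_normal :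
    ((Subgroup.zpowers aEl ⊔ Subgroup.center ↥Co0).subgroupOf Cen).Normal := by
  rw [ker_proj]; infer_instance

theorem section_equiv (hn : ((Subgroup.zpowers aEl ⊔ Subgroup.center ↥Co0).subgroupOf Cen).Normal) :
    Nonempty (↥G315 ≃* ↥Cen ⧸ (Subgroup.zpowers aEl ⊔ Subgroup.center ↥Co0).subgroupOf Cen) :=
  ⟨((QuotientGroup.quotientMulEquivOfEq ker_proj).trans
    (QuotientGroup.quotientKerEquivOfSurjective proj proj_surjective)).symm⟩

end

end Cfsg.Agent.H56.J2Leech
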